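import Cfsg.Agent.H407.L16.Beta
import Cfsg.Agent.H939.L16.Def2
import Cfsg.Agent.H413.L16.Nel

/-!
# S5916, claim G (helper540): spans of root vectors, the parabolic subalgebra `Pf`

* `US P` : the span of the root vectors with the property `P`; `US_F`, `US_T` : stability;
* `Pf_br` : `Pf` is closed under the bracket; `Pf_ne_top`.
-/

set_option autoImplicit false
set_option maxRecDepth 100000

namespace Cfsg.Agent.H540.L16

open Cfsg Cfsg.Lie
open Cfsg.Agent.H939.L64 (KK LK brK aK)
open Cfsg.Agent.H413.L16 (er hv hr tg row br_rr br_neg br_hv br_er_hv br_hh brM br_comm nr tg_le er_ge er_of single_eq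
  er_inr)
open Cfsg.Agent.H939.L16
open Cfsg.Agent.H955.L16
open Cfsg.Agent.H407.L16 (brM_apply)

variable {Fp : LK → LK} {ta : LK →ₗ[KK] LK}

theorem Fp_zero (O : Ops Fp ta) : Fp 0 = 0 := by
  have h := O.smul 0 0
  rwa [zero_smul, zero_pow (by norm_num), zero_smul] at h

theorem xl_add (r : Fin chevE8.nroots) (c : KK) (u v : LK) : xl r c (u + v) = xl r c u + xl r c v := by
  unfold xl
  rw [← brM_apply, map_add, brM_apply, brM_apply, Pi.add_apply, smul_add, mul_add, add_smul]
  abel

theorem xl_smul (r : Fin chevE8.nroots) (c a : KK) (u : LK) : xl r c (a • u) = a • xl r c u := by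
  have e1 : c • a • brK (er r) u = a • c • brK (er r) u := smul_comm _ _ _
  have e2 : (c ^ 2 * (a * u (Sum.inr (Fin.rev r)))) • er r = a • (c ^ 2 * u (Sum.inr (Fin.rev r))) • er r := by
    rw [smul_smul]
    congr 1
    ring
  unfold xl
  rw [← brM_apply, map_smul, brM_apply, Pi.smul_apply, smul_eq_mul, e1, e2, smul_add, smul_add]

/-- `x_r(c)` as a linear map -/
noncomputable def xL (r : Fin chevE8.nroots) (c : KK) : LK →ₗ[KK] LK where
  toFun := xl r c
  map_add' := xl_add r c
  map_smul' := xl_smul r c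

theorem rev_val (r : Fin chevE8.nroots) : ((Fin.rev r : Fin chevE8.nroots) : ℕ) = 239 - r := by
  have h4 := Fin.val_rev r
  have h5 := nr
  omega

theorem xl_er (r : Fin chevE8.nroots) (c : KK) {s : ℕ} (hs : s < 240) (hn : s ≠ 239 - r) :
    xl r c (er s) = er s + c • er (tg r s) := by
  unfold xl
  rw [br_rr (lt_of_lt_of_eq r.2 nr) hs hn, er_inr, if_neg (by rw [rev_val]; exact hn), mul_zero, zero_smul, add_zero]

/-- the span of the root vectors with the property `P` -/
noncomputable def US (P : ℕ → Bool) : Submodule KK LK := Submodule.span KK {v | ∃ s < 240, P s = true ∧ v = er s}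

theorem er_US {P : ℕ → Bool} {s : ℕ} (hs : s < 240) (h : P s = true) : er s ∈ US P := Submodule.subset_span ⟨s, hs, h, rfl⟩

def okW (P : ℕ → Bool) : Bool := (List.range 240).all fun s => !P s || (P (wi s) && decide (wi s < 240))

/-- the target of an entry of a row -/
def tgt (e : ℕ × Array (ℕ × ℤ)) : ℕ := (e.2.getD 0 (240, 0)).1

def okX (P : ℕ → Bool) (r : ℕ) : Bool := !P (239 - r) && (row r).all fun e => !P e.1 || (P (tgt e) && Nat.blt (tgt e) 240)

theorem tg_mem {r s : ℕ} (h : tg r s < 240) : ∃ e ∈ row r, e.1 = s ∧ tgt e = tg r s := by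
  unfold tg at h ⊢
  cases hf : (row r).find? (fun e => e.1 == s) with
  | none => rw [hf] at h; exact absurd h (lt_irrefl 240)
  | some e => exact ⟨e, List.mem_of_find?_eq_some hf, by simpa using List.find?_some hf, rfl⟩

theorem okW_spec {P : ℕ → Bool} (h : okW P = true) {s : ℕ} (hs : s < 240) (hp : P s = true) :
    P (wi s) = true ∧ wi s < 240 := by
  have h1 := List.all_eq_true.1 h s (List.mem_range.2 hs)
  rw [hp] at h1
  simpa using h1

theorem okX_spec {P : ℕ → Bool} {r : ℕ} (hr : r < 240) (h : okX P r = true) {s : ℕ} (hp : P s = true) :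
    s ≠ 239 - r ∧ ((P (tg r s) = true ∧ tg r s < 240) ∨ tg r s = 240) := by
  unfold okX at h
  rw [Bool.and_eq_true] at h
  refine ⟨?_, ?_⟩
  · rintro rfl
    rw [hp] at h
    exact absurd h.1 (by simp)
  · by_cases h1 : tg r s < 240
    · left
      obtain ⟨e, he, h2, h3⟩ := tg_mem h1
      have h4 := List.all_eq_true.1 h.2 e he
      rw [h2, hp, h3] at h4
      exact ⟨by simpa using (Bool.and_eq_true _ _ ▸ (by simpa using h4 : P (tg r s) && Nat.blt (tg r s) 240)).1, h1⟩
    · right
      have := tg_le hr s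
      omega

theorem US_F (O : Ops Fp ta) {P : ℕ → Bool} (h : okW P = true) {v : LK} (hv : v ∈ US P) : Fp v ∈ US P := by
  refine Submodule.span_induction ?_ ?_ ?_ ?_ hv
  · rintro _ ⟨s, hs, hp, rfl⟩
    obtain ⟨h1, h2⟩ := okW_spec h hs hp
    rw [O.er s hs]
    exact er_US h2 h1
  · rw [Fp_zero O]; exact zero_mem _
  · intro x y _ _ hx hy
    rw [O.add]; exact add_mem hx hy
  · intro c x _ hx
    rw [O.smul]; exact Submodule.smul_mem _ _ hx

theorem US_F_iter (O : Ops Fp ta) {P : ℕ → Bool} (h : okW P = true) {v : LK} (hv : v ∈ US P) (j : ℕ) :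
    Fp^[j] v ∈ US P := by
  induction j with
  | zero => exact hv
  | succ j ih => rw [Function.iterate_succ_apply']; exact US_F O h ih

theorem US_ta (O : Ops Fp ta) {P : ℕ → Bool} (h : okW P = true) {v : LK} (hv : v ∈ US P) : ta v ∈ US P := by
  refine Submodule.span_induction ?_ ?_ ?_ ?_ hv
  · rintro _ ⟨s, hs, hp, rfl⟩
    obtain ⟨h1, h2⟩ := okW_spec h hs hp
    obtain ⟨h3, h4⟩ := okW_spec h h2 h1
    obtain ⟨h5, h6⟩ := okW_spec h h4 h3
    obtain ⟨h7, h8⟩ := okW_spec h h6 h5
    rw [O.ter s hs]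
    exact er_US h8 h7
  · rw [map_zero]; exact zero_mem _
  · intro x y _ _ hx hy
    rw [map_add]; exact add_mem hx hy
  · intro c x _ hx
    rw [map_smul]; exact Submodule.smul_mem _ _ hx

theorem US_xl {P : ℕ → Bool} (r : Fin chevE8.nroots) (h : okX P r = true) (c : KK) {v : LK} (hv : v ∈ US P) :
    xl r c v ∈ US P := by
  refine Submodule.span_induction ?_ ?_ ?_ ?_ hv
  · rintro _ ⟨s, hs, hp, rfl⟩
    obtain ⟨h1, h2⟩ := okX_spec (lt_of_lt_of_eq r.2 nr) h hp
    rw [xl_er r c hs h1]
    refine add_mem (er_US hs hp) (Submodule.smul_mem _ _ ?_)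
    rcases h2 with h2 | h2
    · exact er_US h2.2 h2.1
    · rw [h2, er_ge le_rfl]; exact zero_mem _
  · have : xl r c 0 = 0 := (xL r c).map_zero
    rw [this]; exact zero_mem _
  · intro x y _ _ hx hy
    rw [xl_add]; exact add_mem hx hy
  · intro a x _ hx
    rw [xl_smul]; exact Submodule.smul_mem _ _ hx

def okT4 (P : ℕ → Bool) : Bool := okW P && okX P 121 && okX P 126 && okX P 141 && okX P 135

theorem US_T (O : Ops Fp ta) {P : ℕ → Bool} (h : okT4 P = true) {v : LK} (hv : v ∈ US P) : T ta v ∈ US P := by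
  unfold okT4 at h
  simp only [Bool.and_eq_true] at h
  obtain ⟨⟨⟨⟨h0, h1⟩, h2⟩, h3⟩, h4⟩ := h
  unfold T iz
  exact US_xl _ h1 _ (US_xl _ h2 _ (US_xl _ h3 _ (US_xl _ h4 _ (US_ta O h0 hv))))

theorem vR_US {P : ℕ → Bool} (h : (P 128 && P 147 && P 137 && P 143 && P 148) = true) (k r1 r2 r3 r0 : KK) :
    vR k 0 0 r1 r2 r3 r0 ∈ US P := by
  simp only [Bool.and_eq_true] at h
  obtain ⟨⟨⟨⟨h0, h1⟩, h2⟩, h3⟩, h4⟩ := h
  unfold vR
  rw [zero_smul, zero_smul, add_zero, add_zero]
  refine add_mem (add_mem (add_mem (add_mem ?_ ?_) ?_) ?_) ?_ <;> refine Submodule.smul_mem _ _ (er_US (by norm_num) ?_) <;>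
    assumption

theorem vN_US {P : ℕ → Bool} (h : (P 157 && P 172 && P 2 && P 154 && P 129 && P 156 && P 167) = true)
    (K1 K2 A A2 B : KK) : vN K1 K2 A A2 B ∈ US P := by
  simp only [Bool.and_eq_true] at h
  obtain ⟨⟨⟨⟨⟨⟨h0, h1⟩, h2⟩, h3⟩, h4⟩, h5⟩, h6⟩ := h
  have e : ∀ s < 240, P s = true → er s ∈ US P := fun s hs hp => er_US hs hp
  unfold vN
  refine add_mem (add_mem (add_mem (add_mem ?_ ?_) ?_) ?_) ?_
  · exact Submodule.smul_mem _ _ (e _ (by norm_num) h0)
  · exact Submodule.smul_mem _ _ (e _ (by norm_num) h1)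
  · exact Submodule.smul_mem _ _ (add_mem (e _ (by norm_num) h2) (e _ (by norm_num) h3))
  · exact Submodule.smul_mem _ _ (add_mem (e _ (by norm_num) h4) (e _ (by norm_num) h5))
  · exact Submodule.smul_mem _ _ (add_mem (e _ (by norm_num) h2) (e _ (by norm_num) h6))

theorem vK_US {P : ℕ → Bool} (h : (P 157 && P 172) = true) (K1 K2 : KK) : vN K1 K2 0 0 0 ∈ US P := by
  simp only [Bool.and_eq_true] at h
  unfold vN
  rw [zero_smul, zero_smul, zero_smul, add_zero, add_zero, add_zero]
  exact add_mem (Submodule.smul_mem _ _ (er_US (by norm_num) h.1)) (Submodule.smul_mem _ _ (er_US (by norm_num) h.2))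

/-! ### the parabolic subalgebra -/

/-- the values `f + 8`, five bits each -/
def FTn : ℕ := 4459783964183896524750857612206476015301772667422339259653309427402185860863054989364581935690251921699200042942447021833193619767219925956367105557665651214531867178013362430882494713963633418357494030973127906373293573014635405129940814919004604907954968560013788408437379347280559191259758772391134107507881135992931320952094329741696400719105813638525723880

/-- `f + 8` -/
def fn (s : ℕ) : ℕ := (FTn >>> (5 * s)) % 32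

theorem fv_fn : ((List.range 240).all fun s => decide (fv s = (fn s : ℤ) - 8)) = true := by decide +kernel

theorem fv_eq {s : ℕ} (hs : s < 240) : fv s = (fn s : ℤ) - 8 :=
  of_decide_eq_true (List.all_eq_true.1 fv_fn s (List.mem_range.2 hs))

/-- the property `f ≥ 0` -/
def PP (s : ℕ) : Bool := Nat.ble 8 (fn s)

theorem PP_ok : okT4 PP = true := by decide +kernel

theorem PP_R : (PP 128 && PP 147 && PP 137 && PP 143 && PP 148) = true := by decide +kernel

theorem PP_N : (PP 157 && PP 172 && PP 2 && PP 154 && PP 129 && PP 156 && PP 167) = true := by decide +kernel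

theorem good_PP (O : Ops Fp ta) {v : LK} (h : Good Fp ta v) : v ∈ US PP := by
  have hW : okW PP = true := by
    have := PP_ok
    unfold okT4 at this
    simp only [Bool.and_eq_true] at this
    exact this.1.1.1.1
  obtain ⟨j, u, hu, hv⟩ := h
  have h1 : u ∈ US PP := by
    rcases hu with ⟨k, r1, r2, r3, r0, rfl⟩ | ⟨K1, K2, A, A2, B, -, rfl⟩
    · exact vR_US PP_R _ _ _ _ _
    · exact vN_US PP_N _ _ _ _ _
  rcases hv with rfl | rfl
  · exact US_F_iter O hW h1 j
  · exact US_T O PP_ok (US_F_iter O hW h1 j)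

theorem er_Pf {s : ℕ} (h : 0 ≤ fv s) : er s ∈ Pf := by
  intro t ht
  rw [er_inr, if_neg]
  rintro rfl
  omega

theorem hv_Pf (c : Fin chevE8.rank → KK) : hv c ∈ Pf := fun _ _ => rfl

theorem US_le_Pf : US PP ≤ Pf := by
  refine Submodule.span_le.2 ?_
  rintro _ ⟨s, hs, hp, rfl⟩
  have h1 : 8 ≤ fn s := Nat.le_of_ble_eq_true hp
  exact er_Pf (by rw [fv_eq hs]; omega)

theorem row_fn : ((List.range 240).all fun r => (row r).all fun e => Nat.blt (tgt e) 240 && Nat.blt e.1 240 &&
    Nat.beq (fn (tgt e) + 8) (fn r + fn e.1)) = true := by decide +kernel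

theorem tg_fv {r s : ℕ} (hr : r < 240) (h : tg r s < 240) : fv (tg r s) = fv r + fv s := by
  obtain ⟨e, he, h2, h3⟩ := tg_mem h
  have h1 := List.all_eq_true.1 (List.all_eq_true.1 row_fn r (List.mem_range.2 hr)) e he
  rw [Bool.and_eq_true, Bool.and_eq_true] at h1
  have h4 : e.1 < 240 := by
    have := h1.1.2
    rwa [Nat.blt_eq] at this
  have h5 := Nat.eq_of_beq_eq_true h1.2
  rw [h2] at h4
  rw [h2, h3] at h5
  rw [fv_eq h, fv_eq hr, fv_eq h4]
  omega

/-- the decomposition of a vector -/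
theorem dec (v : LK) : v = hv (fun i => v (Sum.inl i)) + ∑ s : Fin chevE8.nroots, v (Sum.inr s) • er s := by
  funext a
  rcases a with i | t
  · rw [Pi.add_apply, Finset.sum_apply, Finset.sum_eq_zero]
    · rw [add_zero]; rfl
    · intro s _
      rw [Pi.smul_apply, er_of s.2, Pi.single_eq_of_ne (by simp), smul_zero]
  · rw [Pi.add_apply, Finset.sum_apply, Finset.sum_eq_single t]
    · rw [Pi.smul_apply, er_inr, if_pos rfl, smul_eq_mul, mul_one]
      show _ = (0 : KK) + _
      rw [zero_add]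
    · intro s _ hs
      rw [Pi.smul_apply, er_inr, if_neg (fun h => hs (Fin.ext h)), smul_zero]
    · intro h; exact absurd (Finset.mem_univ _) h

/-- `Pf` is closed under the bracket -/
theorem Pf_br {u v : LK} (hu : u ∈ Pf) (hv' : v ∈ Pf) : brK u v ∈ Pf := by
  rw [dec u, dec v, ← brM_apply, map_add brM, LinearMap.add_apply, map_add, map_add]
  refine add_mem (add_mem ?_ ?_) ?_
  · rw [brM_apply, br_hh]; exact zero_mem _
  · rw [map_sum]
    refine sum_mem fun t _ => ?_
    rw [map_smul, brM_apply, br_hv _ (lt_of_lt_of_eq t.2 nr)]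
    by_cases ht : 0 ≤ fv t
    · exact Submodule.smul_mem _ _ (Submodule.smul_mem _ _ (er_Pf ht))
    · rw [hv' t (by omega), zero_smul]; exact zero_mem _
  · rw [map_sum, LinearMap.sum_apply, LinearMap.sum_apply]
    refine add_mem (sum_mem fun s _ => ?_) ?_
    · rw [map_smul, LinearMap.smul_apply, brM_apply, br_er_hv _ (lt_of_lt_of_eq s.2 nr)]
      by_cases hs : 0 ≤ fv s
      · exact Submodule.smul_mem _ _ (Submodule.smul_mem _ _ (er_Pf hs))
      · rw [hu s (by omega), zero_smul]; exact zero_mem _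
    · refine sum_mem fun s _ => ?_
      rw [map_sum]
      refine sum_mem fun t _ => ?_
      rw [map_smul, map_smul, LinearMap.smul_apply, brM_apply]
      by_cases hs : 0 ≤ fv s
      · by_cases ht : 0 ≤ fv t
        · refine Submodule.smul_mem _ _ (Submodule.smul_mem _ _ ?_)
          have a1 := lt_of_lt_of_eq s.2 nr
          have a2 := lt_of_lt_of_eq t.2 nr
          by_cases h : (t : ℕ) = 239 - s
          · rw [h, br_neg a1]
            exact hv_Pf _
          · rw [br_rr a1 a2 h]
            by_cases h3 : tg s t < 240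
            · exact er_Pf (by rw [tg_fv a1 h3]; omega)
            · rw [er_ge (by omega)]; exact zero_mem _
        · rw [hv' t (by omega), zero_smul]; exact zero_mem _
      · rw [hu s (by omega), zero_smul, smul_zero]; exact zero_mem _

theorem Pf_ne_top : Pf ≠ ⊤ := by
  intro h
  have h1 : er 118 ∈ Pf := by rw [h]; trivial
  have h2 := h1 ⟨118, by decide +kernel⟩ (by decide +kernel)
  rw [er_inr, if_pos rfl] at h2
  exact one_ne_zero h2

end Cfsg.Agent.H540.L16
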